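-- Team project SUG (S2412): field facts for the generic block (helper32).
import Mathlib
import Cfsg.Agent.Lib.Helper13.Herm

set_option autoImplicit false

namespace Cfsg.Agent.Lib.Helper32.SUG

open Cfsg.Agent.Lib.Helper13

universe u

variable {F : Type u} [Field F] [Fintype F] {q : ℕ}

/-- A generator `g` of the multiplicative group of `F`, `|F| = q²`. -/
theorem exists_gen (hF : Fintype.card F = q ^ 2) :
    ∃ g : F, g ≠ 0 ∧ orderOf g = q ^ 2 - 1 ∧ ∀ x : F, x ≠ 0 → ∃ k : ℕ, x = g ^ k := by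
  classical
  obtain ⟨g, hg⟩ := IsCyclic.exists_generator (α := Fˣ)
  refine ⟨(g : F), g.ne_zero, ?_, ?_⟩
  · rw [orderOf_units, orderOf_eq_card_of_forall_mem_zpowers hg, Nat.card_eq_fintype_card,
      Fintype.card_units, hF]
  · intro x hx
    have h1 : Units.mk0 x hx ∈ Subgroup.zpowers g := hg _
    have h2 : Units.mk0 x hx ∈ Submonoid.powers g :=
      (isOfFinOrder_of_finite g).mem_powers_iff_mem_zpowers.mpr h1
    obtain ⟨k, hk⟩ := h2
    refine ⟨k, ?_⟩
    have := congrArg (fun u : Fˣ => (u : F)) hk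
    simpa using this.symm

omit [Fintype F] in
/-- `μ = g ^ (q + 1)` is fixed by `x ↦ x ^ q`. -/
theorem mu_fixed (hq : 1 ≤ q) {g : F} (hg : orderOf g = q ^ 2 - 1) :
    (g ^ (q + 1)) ^ q = g ^ (q + 1) := by
  have h1 : (g ^ (q + 1)) ^ (q - 1) = 1 := by
    rw [← pow_mul]
    have : (q + 1) * (q - 1) = q ^ 2 - 1 := by
      obtain ⟨k, rfl⟩ := Nat.exists_eq_add_of_le hq
      simp only [Nat.add_sub_cancel_left]
      have : (1 + k) ^ 2 = (1 + k + 1) * k + 1 := by ring
      omega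
    rw [this, ← hg]
    exact pow_orderOf_eq_one g
  have h2 : q = (q - 1) + 1 := by omega
  calc (g ^ (q + 1)) ^ q = (g ^ (q + 1)) ^ ((q - 1) + 1) := by rw [← h2]
    _ = g ^ (q + 1) := by rw [pow_succ, h1, one_mul]

omit [Fintype F] in
/-- The nonzero fixed points of `x ↦ x ^ q` are the powers of `μ = g ^ (q + 1)`. -/
theorem fixed_eq_pow (hq : 2 ≤ q) {g : F} (hg0 : g ≠ 0) (hg : orderOf g = q ^ 2 - 1)
    (hgen : ∀ x : F, x ≠ 0 → ∃ k : ℕ, x = g ^ k) {x : F} (hx0 : x ≠ 0) (hx : x ^ q = x) :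
    ∃ j : ℕ, x = (g ^ (q + 1)) ^ j := by
  obtain ⟨k, rfl⟩ := hgen x hx0
  rw [← pow_mul] at hx
  have hle : k ≤ k * q := by nlinarith
  have h1 : g ^ (k * q - k) = 1 := by
    have h0 : g ^ (k * q) = g ^ k * g ^ (k * q - k) := by
      rw [← pow_add]; congr 1; omega
    rw [h0] at hx
    have hk0 : g ^ k ≠ 0 := pow_ne_zero _ hg0
    exact mul_left_cancel₀ hk0 (by rw [hx, mul_one])
  have h2 : orderOf g ∣ k * q - k := orderOf_dvd_of_pow_eq_one h1
  rw [hg] at h2
  have h3 : q ^ 2 - 1 = (q - 1) * (q + 1) := by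
    obtain ⟨m, rfl⟩ := Nat.exists_eq_add_of_le hq
    have : (2 + m) ^ 2 = (2 + m - 1) * (2 + m + 1) + 1 := by
      have : 2 + m - 1 = m + 1 := by omega
      rw [this]; ring
    omega
  have h4 : k * q - k = (q - 1) * k := by
    obtain ⟨m, rfl⟩ := Nat.exists_eq_add_of_le hq
    have : 2 + m - 1 = m + 1 := by omega
    rw [this]
    have : k * (2 + m) = (m + 1) * k + k := by ring
    omega
  rw [h3, h4] at h2
  have h5 : q + 1 ∣ k := Nat.dvd_of_mul_dvd_mul_left (by omega) h2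
  obtain ⟨j, rfl⟩ := h5
  exact ⟨j, by rw [← pow_mul]⟩

/-- The even powers of `μ = g ^ (q + 1)` span the fixed field of `x ↦ x ^ q` additively. -/
theorem fixed_span (hF : Fintype.card F = q ^ 2) {g : F} (hg0 : g ≠ 0)
    (hg : orderOf g = q ^ 2 - 1)
    (hgen : ∀ x : F, x ≠ 0 → ∃ k : ℕ, x = g ^ k) (x : F) (hx : x ^ q = x) :
    x ∈ AddSubmonoid.closure (Set.range fun j : ℕ => ((g ^ (q + 1)) ^ 2) ^ j) := by
  have hq : 2 ≤ q := q_pos_of_card hF
  set μ : F := g ^ (q + 1) with hμ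
  set S : AddSubmonoid F := AddSubmonoid.closure (Set.range fun j : ℕ => (μ ^ 2) ^ j) with hS
  have hμq : μ ^ q = μ := mu_fixed (by omega) hg
  have hrange : ∀ j : ℕ, (μ ^ 2) ^ j ∈ S := fun j => AddSubmonoid.subset_closure ⟨j, rfl⟩
  have hone : (1 : F) ∈ S := by simpa using hrange 0
  have hneg : ∀ y ∈ S, -y ∈ S := by
    intro y hy
    have h1 : (Fintype.card F - 1) • y ∈ S := S.nsmul_mem hy _
    have h2 : (Fintype.card F - 1) • y = -y := by
      have h3 : Fintype.card F • y = 0 := card_nsmul_eq_zero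
      have h4 : Fintype.card F = (Fintype.card F - 1) + 1 := by
        have : 0 < Fintype.card F := Fintype.card_pos
        omega
      rw [h4, add_smul, one_smul] at h3
      exact eq_neg_of_add_eq_zero_left h3
    rwa [h2] at h1
  have hmul : ∀ j : ℕ, ∀ y ∈ S, (μ ^ 2) ^ j * y ∈ S := by
    intro j y hy
    refine AddSubmonoid.closure_induction (motive := fun y _ => (μ ^ 2) ^ j * y ∈ S) ?_ ?_ ?_ hy
    · rintro _ ⟨i, rfl⟩
      rw [← pow_add]
      exact hrange _
    · rw [mul_zero]; exact S.zero_mem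
    · intro a b _ _ ha hb
      rw [mul_add]; exact S.add_mem ha hb
  have hμS : μ ∈ S := by
    rcases Nat.even_or_odd q with he | ho
    · obtain ⟨r, hr⟩ := he
      have : (μ ^ 2) ^ r = μ := by
        rw [← pow_mul μ 2 r]
        have : 2 * r = q := by omega
        rw [this, hμq]
      rw [← this]; exact hrange r
    · by_cases h0 : μ + 1 = 0
      · have : μ = -1 := eq_neg_of_add_eq_zero_left h0
        rw [this]; exact hneg 1 hone
      · have hfix : (μ + 1) ^ q = μ + 1 := by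
          rw [frob_add hF, hμq, one_pow]
        obtain ⟨i, hi⟩ := fixed_eq_pow hq hg0 hg hgen h0 hfix
        have hi' : μ + 1 = μ ^ i := hi
        have h2 : 2 • μ = (μ ^ 2) ^ i + (-(μ ^ 2) + -1) := by
          have : (μ ^ 2) ^ i = (μ + 1) ^ 2 := by
            rw [hi', ← pow_mul μ 2 i, ← pow_mul μ i 2, mul_comm]
          rw [this, two_smul]; ring
        have h3 : 2 • μ ∈ S := by
          rw [h2]
          refine S.add_mem (hrange i) (S.add_mem (hneg _ ?_) (hneg _ hone))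
          simpa using hrange 1
        obtain ⟨r, hr⟩ := ho
        have hcard : Fintype.card F = 2 * (2 * r ^ 2 + 2 * r) + 1 := by
          rw [hF, hr]; ring
        have h4 : (2 * r ^ 2 + 2 * r + 1) • (2 • μ) = μ := by
          rw [smul_smul]
          have h5 : (2 * r ^ 2 + 2 * r + 1) * 2 = Fintype.card F + 1 := by rw [hcard]; ring
          rw [h5, add_smul, one_smul, card_nsmul_eq_zero, zero_add]
        rw [← h4]
        exact S.nsmul_mem h3 _
  have hpow : ∀ k : ℕ, μ ^ k ∈ S := by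
    intro k
    rcases Nat.even_or_odd k with he | ho
    · obtain ⟨r, hr⟩ := he
      have : μ ^ k = (μ ^ 2) ^ r := by rw [hr, ← two_mul, pow_mul]
      rw [this]; exact hrange r
    · obtain ⟨r, hr⟩ := ho
      have : μ ^ k = (μ ^ 2) ^ r * μ := by rw [hr, pow_succ, pow_mul]
      rw [this]; exact hmul r μ hμS
  by_cases hx0 : x = 0
  · rw [hx0]; exact S.zero_mem
  · obtain ⟨j, hj⟩ := fixed_eq_pow hq hg0 hg hgen hx0 hx
    rw [hj]
    exact hpow j

end Cfsg.Agent.Lib.Helper32.SUG
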