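-- Team project SUG (S2412), case [GEN]: leaves [GCOMM1], [GCOMM2] (helper32).
import Mathlib
import Cfsg.Agent.Lib.Helper60.SUG.GenDefs
import Cfsg.Agent.Lib.Helper13.UTransvComm

set_option autoImplicit false

namespace Cfsg.Agent.Lib.Helper32.SUG

open Matrix Cfsg.Agent.Lib.Helper60.SUG Cfsg.Agent.Lib.Helper13 Cfsg.Agent.Lib.Helper45

universe u

section basics

variable {F : Type u} [Field F] [Fintype F] {q n : ℕ}

theorem gmat_isHermIso (g : ↥(Cfsg.SU n F q)) : IsHermIso n F q (mat g) := g.2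

theorem gmat_mul (g h : ↥(Cfsg.SU n F q)) : mat (g * h) = mat g * mat h := rfl

theorem gmat_mul_inv (g : ↥(Cfsg.SU n F q)) : mat g * mat g⁻¹ = 1 := by
  rw [← gmat_mul, mul_inv_cancel]; rfl

theorem gsu_ext (A B : ↥(Cfsg.SU n F q)) (h : mat A = mat B) : A = B :=
  Subtype.ext (Subtype.ext h)

/-- The inverse cyclic shift moves the coordinates down. -/
theorem cyc_inv_apply (c : ↥(Cfsg.SU n F q)) (hc : IsCyc c) (x : Fin n → F) (i j : Fin n)
    (hij : (j : ℕ) = (i : ℕ) + 1) : (mat c⁻¹ *ᵥ x) i = x j := by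
  have h1 : mat c *ᵥ (mat c⁻¹ *ᵥ x) = x := by
    rw [Matrix.mulVec_mulVec, gmat_mul_inv, Matrix.one_mulVec]
  have h2 := hc.1 (mat c⁻¹ *ᵥ x) i j hij
  rw [h1] at h2
  exact h2.symm

/-- An element of `SU_n` fixing `v` commutes with the transvections centred at `v`. -/
theorem comm_of_fix (s g₀ : ↥(Cfsg.SU n F q)) (v : Fin n → F) (c₀ : F)
    (hg₀ : mat g₀ = Cfsg.unitaryTransvection n q v c₀) (hs : mat s *ᵥ v = v) :
    g₀ * s = s * g₀ := by
  apply gsu_ext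
  rw [gmat_mul, gmat_mul, hg₀, utransv_conj (gmat_isHermIso s) v c₀, hs]

/-- An element of `SU_n` multiplying `v` by a scalar of norm one commutes with the transvections
centred at `v`. -/
theorem comm_of_smul (s g₀ : ↥(Cfsg.SU n F q)) (v : Fin n → F) (c₀ a : F)
    (ha : a ^ (q + 1) = 1)
    (hg₀ : mat g₀ = Cfsg.unitaryTransvection n q v c₀) (hs : mat s *ᵥ v = a • v) :
    g₀ * s = s * g₀ := by
  apply gsu_ext
  rw [gmat_mul, gmat_mul, hg₀, utransv_conj (gmat_isHermIso s) v c₀, hs, utransv_smul, ha,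
    one_mul]

end basics

/-- [GCOMM1] -/
theorem pkgGComm1 : PkgGComm1.{u} := by
  intro F _ _ q _ n hn lam μ c₀ c g₀ t _ _ hc hg₀ ht
  apply comm_of_fix _ g₀ (vA n lam) c₀ hg₀
  obtain ⟨-, -, ht3, -⟩ := ht
  set w : Fin n → F := mat c⁻¹ *ᵥ (mat c⁻¹ *ᵥ vA n lam) with hw
  have hw0 : ∀ i : Fin n, (i : ℕ) < 2 → w i = 0 := by
    intro i hi
    have hin := i.isLt
    rw [hw, cyc_inv_apply c hc _ i ⟨(i : ℕ) + 1, by omega⟩ rfl,
      cyc_inv_apply c hc _ ⟨(i : ℕ) + 1, by omega⟩ ⟨(i : ℕ) + 2, by omega⟩ rfl]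
    have h1 : ¬ ((i : ℕ) + 2 = 0) := by omega
    have h2 : ¬ ((i : ℕ) + 2 = 1) := by omega
    simp only [vA, if_neg h1, if_neg h2]
  have htw : mat t *ᵥ w = w := ht3 w hw0
  have h1 : mat (c * c * t * c⁻¹ * c⁻¹) *ᵥ vA n lam
      = mat c *ᵥ (mat c *ᵥ (mat t *ᵥ w)) := by
    simp only [gmat_mul, hw, Matrix.mulVec_mulVec, Matrix.mul_assoc]
  have e : ∀ x : Fin n → F, mat c *ᵥ (mat c⁻¹ *ᵥ x) = x := fun x => by
    rw [Matrix.mulVec_mulVec, gmat_mul_inv, Matrix.one_mulVec]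
  rw [h1, htw, hw, e, e]

/-- [GCOMM2] -/
theorem pkgGComm2 : PkgGComm2.{u} := by
  intro F _ _ q _ n hn lam α c₀ g₀ d _ _ hα hg₀ hd
  apply comm_of_smul d g₀ (vA n lam) c₀ α hα hg₀
  rw [hd]
  funext i
  rw [Matrix.mulVec_diagonal]
  by_cases h0 : (i : ℕ) = 0
  · have h2 : (i : ℕ) < 2 := by omega
    simp only [dV, vA, if_pos h0, if_pos h2, Pi.smul_apply, smul_eq_mul]
  · by_cases h1 : (i : ℕ) = 1
    · have h2 : (i : ℕ) < 2 := by omega
      simp only [dV, vA, if_neg h0, if_pos h1, if_pos h2, Pi.smul_apply, smul_eq_mul]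
    · simp only [vA, if_neg h0, if_neg h1, Pi.smul_apply, smul_eq_mul, mul_zero]

end Cfsg.Agent.Lib.Helper32.SUG
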